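import Cfsg.Agent.Lib.Root.LocalSet
import Cfsg.Agent.Lib.Root.SL2

/-!
# One-parameter groups `1 + c e` with `e² = 0` as abstract root subgroups.
-/

set_option autoImplicit false

namespace Cfsg.Lib.RI

open Subgroup Cfsg.Lib.Transfer Cfsg.Lib.Root Relation
open scoped Cfsg.Lib.Transfer commutatorElement MatrixGroups

variable (k : Type*) {R G : Type*} [Field k] [Ring R] [Algebra k R] [Group G]

/-- `A` is the group of all `1 + c e`. -/
structure U1 (ι : G →* R) (e : R) (A : Subgroup G) : Prop where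
  sq : e * e = 0
  ne : e ≠ 0
  mem : ∀ g, g ∈ A ↔ ∃ c : k, ι g = 1 + c • e
  ex : ∀ c : k, ∃ g, ι g = 1 + c • e

variable {k} {ι : G →* R} {e f : R} {A B C : Subgroup G}

theorem u1_inv {g : G} {c : k} (he : e * e = 0) (h : ι g = 1 + c • e) : ι g⁻¹ = 1 + (-c) • e := by
  have : ι g * (1 + (-c) • e) = 1 := by
    rw [h]; simp [add_mul, mul_add, he]
  calc ι g⁻¹ = ι g⁻¹ * (ι g * (1 + (-c) • e)) := by rw [this, mul_one]
    _ = _ := by rw [← mul_assoc, ← map_mul, inv_mul_cancel, map_one, one_mul]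

theorem u1_closure (he : e * e = 0) (h0 : e ≠ 0) (ex : ∀ c : k, ∃ g, ι g = 1 + c • e) {s : Set G}
    (hs : ∀ g, g ∈ s ↔ ∃ c : k, ι g = 1 + c • e) : U1 k ι e (closure s) := by
  refine ⟨he, h0, fun g => ⟨fun h => ?_, fun h => subset_closure ((hs g).2 h)⟩, ex⟩
  induction h using closure_induction with
  | mem x hx => exact (hs x).1 hx
  | one => exact ⟨0, by simp⟩
  | mul x y _ _ h1 h2 =>
    obtain ⟨a, h1⟩ := h1
    obtain ⟨b, h2⟩ := h2
    exact ⟨a + b, by rw [map_mul, h1, h2]; simp [add_mul, mul_add, he, add_smul]; abel⟩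
  | inv x _ h => exact let ⟨c, h⟩ := h; ⟨-c, u1_inv he h⟩

namespace U1

theorem unique (h : U1 k ι e A) (h' : U1 k ι e B) : A = B :=
  Subgroup.ext fun g => (h.mem g).trans (h'.mem g).symm

theorem smul (h : U1 k ι e A) {c : k} (hc : c ≠ 0) : U1 k ι (c • e) A :=
  ⟨by simp [h.sq], smul_ne_zero hc h.ne, fun g => (h.mem g).trans ⟨fun ⟨a, e⟩ =>
    ⟨a / c, by rw [e, smul_smul, div_mul_cancel₀ _ hc]⟩, fun ⟨a, e⟩ => ⟨a * c, by rw [e, smul_smul]⟩⟩,
    fun a => by rw [smul_smul]; exact h.ex _⟩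

theorem conj (h : U1 k ι e A) (g : G) : U1 k ι (ι g * e * ι g⁻¹) (g ⋆ A) := by
  have h1 : ι g⁻¹ * ι g = 1 := by rw [← map_mul, inv_mul_cancel, map_one]
  have h2 : ι g * ι g⁻¹ = 1 := by rw [← map_mul, mul_inv_cancel, map_one]
  have h3 : ∀ (c : k) x, ι x = 1 + c • e → ι (g * x * g⁻¹) = 1 + c • (ι g * e * ι g⁻¹) := fun c x e1 => by
    rw [map_mul, map_mul, e1, mul_add, add_mul, mul_one, h2, mul_smul_comm, smul_mul_assoc]
  refine ⟨by rw [mul_assoc, ← mul_assoc (ι g⁻¹), ← mul_assoc (ι g⁻¹), h1, one_mul, ← mul_assoc,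
    mul_assoc (ι g), h.sq, mul_zero, zero_mul], fun e1 => h.ne ?_, fun x => ?_, fun c =>
      let ⟨x, e1⟩ := h.ex c; ⟨_, h3 c x e1⟩⟩
  · rw [← one_mul e, ← h1, ← mul_one (_ * e), ← h1, mul_assoc _ _ e, ← mul_assoc _ (ι g⁻¹),
      mul_assoc (ι g⁻¹), e1, mul_zero, zero_mul]
  · rw [mem_conj, h.mem]
    refine exists_congr fun c => ⟨fun e1 => by simpa [mul_assoc] using h3 c _ e1, fun e1 => ?_⟩
    rw [map_mul, map_mul, e1, mul_add, add_mul, mul_one, h1, mul_smul_comm, smul_mul_assoc,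
      ← mul_assoc, ← mul_assoc, h1, one_mul, mul_assoc, h1, mul_one]

theorem subgroupOf (h : U1 k ι e A) {K : Subgroup G} (hA : A ≤ K) :
    U1 k (ι.comp K.subtype) e (A.subgroupOf K) :=
  ⟨h.sq, h.ne, fun g => h.mem g, fun c => let ⟨g, e1⟩ := h.ex c; ⟨⟨g, hA ((h.mem g).2 ⟨c, e1⟩)⟩, e1⟩⟩

theorem ne_bot (h : U1 k ι e A) : A ≠ ⊥ := fun e1 => by
  obtain ⟨g, e2⟩ := h.ex 1
  rw [mem_bot.1 (e1.le ((h.mem g).2 ⟨1, e2⟩)), map_one, one_smul] at e2
  exact h.ne (by simpa using e2)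

variable (hι : Function.Injective ι) (h : U1 k ι e A) (h' : U1 k ι f B)
include hι h h'

theorem cm (c : e * f = f * e) : Cm A B := fun a ha b hb => hι (by
  obtain ⟨s, h1⟩ := (h.mem a).1 ha
  obtain ⟨t, h2⟩ := (h'.mem b).1 hb
  rw [map_mul, map_mul, h1, h2]
  simp only [add_mul, mul_add, mul_one, one_mul, smul_mul_assoc, mul_smul_comm, c]
  module)

omit hι in
theorem of_cm (c : Cm A B) : e * f = f * e := by
  obtain ⟨a, h1⟩ := h.ex 1
  obtain ⟨b, h2⟩ := h'.ex 1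
  have := congrArg ι (c a ((h.mem a).2 ⟨1, h1⟩) b ((h'.mem b).2 ⟨1, h2⟩))
  rw [map_mul, map_mul, h1, h2] at this
  simp only [add_mul, mul_add, mul_one, one_mul, one_smul] at this
  linear_combination (norm := abel1) this

omit hι in
theorem comm_eq (h1 : e * f * e = 0) (h2 : f * e * f = 0) {a b : G} {s t : k} (ha : ι a = 1 + s • e)
    (hb : ι b = 1 + t • f) : ι ⁅a, b⁆ = 1 + (s * t) • (e * f - f * e) := by
  rw [commutatorElement_def, map_mul, map_mul, map_mul, u1_inv h.sq ha, u1_inv h'.sq hb, ha, hb]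
  have h3 : e * (f * e) = 0 := by rw [← mul_assoc, h1]
  have h4 : f * (e * f) = 0 := by rw [← mul_assoc, h2]
  simp only [add_mul, mul_add, mul_one, one_mul, smul_mul_assoc, mul_smul_comm, mul_assoc, h3, h4,
    h.sq, h'.sq, smul_zero, mul_zero, add_zero, smul_sub, smul_add]
  module

theorem cc (h1 : e * f * e = 0) (h2 : f * e * f = 0) (hC : U1 k ι (e * f - f * e) C) : CC A B C := by
  have k1 : ∀ a ∈ A, a ≠ 1 → ∃ s : k, s ≠ 0 ∧ ι a = 1 + s • e := fun a ha h1 =>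
    let ⟨s, e1⟩ := (h.mem a).1 ha
    ⟨s, fun e2 => h1 (hι (by rw [e1, e2, zero_smul, add_zero, map_one])), e1⟩
  have k2 : ∀ a ∈ B, a ≠ 1 → ∃ s : k, s ≠ 0 ∧ ι a = 1 + s • f := fun a ha h1 =>
    let ⟨s, e1⟩ := (h'.mem a).1 ha
    ⟨s, fun e2 => h1 (hι (by rw [e1, e2, zero_smul, add_zero, map_one])), e1⟩
  have r : ∀ a ∈ A, a ≠ 1 → ∀ c ∈ C, ∃ b ∈ B, ⁅a, b⁆ = c := fun a ha h3 c hc => by
    obtain ⟨s, hs, e1⟩ := k1 a ha h3
    obtain ⟨u, e2⟩ := (hC.mem c).1 hc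
    obtain ⟨b, e3⟩ := h'.ex (u / s)
    exact ⟨b, (h'.mem b).2 ⟨_, e3⟩, hι (by rw [h.comm_eq h' h1 h2 e1 e3, e2, mul_div_cancel₀ _ hs])⟩
  refine ⟨le_antisymm (commutator_le.2 fun a ha b hb => ?_) fun c hc => ?_, hC.ne_bot, h.cm hι h rfl,
    h'.cm hι h' rfl, hC.cm hι h ?_, hC.cm hι h' ?_, r, fun b hb h3 c hc => ?_⟩
  · obtain ⟨s, e1⟩ := (h.mem a).1 ha
    obtain ⟨t, e2⟩ := (h'.mem b).1 hb
    exact (hC.mem _).2 ⟨_, h.comm_eq h' h1 h2 e1 e2⟩
  · obtain ⟨a, h3⟩ := ne_bot_iff_exists_ne_one.1 h.ne_bot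
    obtain ⟨b, hb, rfl⟩ := r a a.2 (fun e => h3 (Subtype.ext e)) c hc
    exact commutator_mem_commutator a.2 hb
  · rw [sub_mul, mul_sub, h1, mul_assoc, h.sq, ← mul_assoc, ← mul_assoc, h.sq, h1]; simp
  · rw [sub_mul, mul_sub, h2, mul_assoc, h'.sq, ← mul_assoc, ← mul_assoc, h'.sq, h2]; simp
  · obtain ⟨s, hs, e1⟩ := k2 b hb h3
    obtain ⟨u, e2⟩ := (hC.mem c).1 hc
    obtain ⟨a, e3⟩ := h.ex (u / s)
    exact ⟨a, (h.mem a).2 ⟨_, e3⟩, hι (by rw [h.comm_eq h' h1 h2 e3 e1, e2, div_mul_cancel₀ _ hs])⟩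

theorem psl₁ (h1 : e * f * e = e) (h2 : f * e * f = f) : ∃ φ : SL(2, k) →* G, Function.Injective φ ∧
    (upperUnipotentSL2 k).map φ = A ∧ (lowerUnipotentSL2 k).map φ = B := by
  have h3 : e * (f * e) = e := by rw [← mul_assoc, h1]
  have h4 : f * (e * f) = f := by rw [← mul_assoc, h2]
  have h5 : ∀ x, e * (e * x) = 0 := fun x => by rw [← mul_assoc, h.sq, zero_mul]
  have h6 : ∀ x, f * (f * x) = 0 := fun x => by rw [← mul_assoc, h'.sq, zero_mul]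
  let ψ : SL(2, k) →* R :=
    { toFun := fun M => 1 + (M 0 0 - 1) • (e * f) + M 0 1 • e + M 1 0 • f + (M 1 1 - 1) • (f * e)
      map_one' := by simp
      map_mul' := fun M N => by
        simp only [Matrix.SpecialLinearGroup.coe_mul, Matrix.mul_apply, Fin.sum_univ_two, add_mul, mul_add,
          mul_one, one_mul, smul_mul_assoc, mul_smul_comm, mul_assoc, h3, h4, h5, h6, h.sq, h'.sq,
          smul_zero, mul_zero, add_zero, smul_add]
        module }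
  have u : ∀ t, ψ (xU t) = 1 + t • e := fun t => by simp [ψ, xU]
  have l : ∀ t, ψ (xL t) = 1 + t • f := fun t => by simp [ψ, xL]
  have hr : ∀ M, ψ M ∈ MonoidHom.mrange ι := fun M => by
    have hM : M ∈ upperUnipotentSL2 k ⊔ lowerUnipotentSL2 k := upper_sup_lower.ge (mem_top M)
    rw [sup_eq_closure] at hM
    induction hM using closure_induction'' with
    | one => exact ⟨1, by simp⟩
    | mem x hx =>
      rcases hx with hx | hx
      · obtain ⟨t, rfl⟩ := mem_upper_iff.1 hx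
        exact u t ▸ h.ex t
      · obtain ⟨t, rfl⟩ := mem_lower_iff.1 hx
        exact l t ▸ h'.ex t
    | inv_mem x hx =>
      rcases hx with hx | hx
      · obtain ⟨t, rfl⟩ := mem_upper_iff.1 hx
        exact xU_neg t ▸ u (-t) ▸ h.ex (-t)
      · obtain ⟨t, rfl⟩ := mem_lower_iff.1 hx
        exact xL_neg t ▸ l (-t) ▸ h'.ex (-t)
    | mul x y _ _ h1 h2 => rw [map_mul]; exact mul_mem h1 h2
  choose φ hφ using hr
  let φ' : SL(2, k) →* G := MonoidHom.mk' φ fun M N => hι (by rw [map_mul, hφ, hφ, hφ, map_mul])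
  have hφ' : ∀ M, ι (φ' M) = ψ M := hφ
  refine ⟨φ', (injective_iff_map_eq_one _).2 fun M e1 => ?_, Subgroup.ext fun g => ?_,
    Subgroup.ext fun g => ?_⟩
  · have e2 : (M 0 0 - 1) • (e * f) + M 0 1 • e + M 1 0 • f + (M 1 1 - 1) • (f * e) = 0 := by
      have := hφ' M
      rw [e1, map_one] at this
      simp only [ψ, MonoidHom.coe_mk, OneHom.coe_mk] at this
      linear_combination (norm := abel1) -this
    have a1 := congrArg (fun x => e * (f * (x * e))) e2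
    have a2 := congrArg (fun x => e * (f * (x * (f * e)))) e2
    have a3 := congrArg (fun x => e * (x * e)) e2
    have a4 := congrArg (fun x => e * (x * (f * e))) e2
    simp only [add_mul, mul_add, smul_mul_assoc, mul_smul_comm, mul_assoc, h3, h6, h.sq,
      smul_zero, mul_zero, zero_mul, add_zero, zero_add, smul_eq_zero, h.ne, or_false,
      sub_eq_zero] at a1 a2 a3 a4
    exact sl2_ext (by simpa using a1) (by simpa using a2) (by simpa using a3) (by simpa using a4)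
  · rw [mem_map, h.mem]
    refine ⟨?_, fun ⟨c, e1⟩ => ⟨_, xU_mem c, hι (by rw [hφ', u, e1])⟩⟩
    rintro ⟨x, hx, rfl⟩
    obtain ⟨t, rfl⟩ := mem_upper_iff.1 hx
    exact ⟨t, by rw [hφ', u]⟩
  · rw [mem_map, h'.mem]
    refine ⟨?_, fun ⟨c, e1⟩ => ⟨_, xL_mem c, hι (by rw [hφ', l, e1])⟩⟩
    rintro ⟨x, hx, rfl⟩
    obtain ⟨t, rfl⟩ := mem_lower_iff.1 hx
    exact ⟨t, by rw [hφ', l]⟩

theorem psl {c : k} (hc : c ≠ 0) (h1 : e * f * e = c • e) (h2 : f * e * f = c • f) :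
    IsRankOnePair A B ∧ IsPSL2PairOver k A B := by
  obtain ⟨φ, hφ, rfl, rfl⟩ := h.psl₁ hι (h'.smul (inv_ne_zero hc))
    (by rw [mul_smul_comm, smul_mul_assoc, h1, smul_smul, inv_mul_cancel₀ hc, one_smul])
    (by rw [smul_mul_assoc, smul_mul_assoc, mul_smul_comm, h2, smul_smul c⁻¹ c, inv_mul_cancel₀ hc, one_smul])
  exact ⟨r1_map hφ sl2_rankOne, φ, by rw [← Subgroup.map_sup, upper_sup_lower, MonoidHom.range_eq_map],
    (MonoidHom.ker_eq_bot_iff φ).2 hφ ▸ bot_le, rfl, rfl⟩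

end U1

/-- A family of one-parameter groups indexed by the square-zero elements with property `P`. -/
structure Fam (k : Type*) [Field k] [Algebra k R] (ι : G →* R) (P : R → Prop) (S : Set (Subgroup G)) :
    Prop where
  inj : Function.Injective ι
  ex : ∀ A ∈ S, ∃ e, P e ∧ U1 k ι e A
  mk' : ∀ e, P e → ∃ A ∈ S, U1 k ι e A
  conj : ∀ e, P e → ∀ g, P (ι g * e * ι g⁻¹)
  tri : ∀ e f, P e → P f → e * f = f * e ∨ (∃ c : k, c ≠ 0 ∧ e * f * e = c • e ∧ f * e * f = c • f) ∨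
    (e * f * e = 0 ∧ f * e * f = 0 ∧ P (e * f - f * e))
  opp : ∀ e, P e → ∃ f, P f ∧ ∃ c : k, c ≠ 0 ∧ e * f * e = c • e ∧ f * e * f = c • f

namespace Fam

variable {P : R → Prop} {S : Set (Subgroup G)} (H : Fam k ι P S)
include H

theorem mem (he : P e) (h : U1 k ι e A) : A ∈ S :=
  let ⟨_, hB, h'⟩ := H.mk' e he
  h'.unique h ▸ hB

theorem tri' (hA : A ∈ S) (hB : B ∈ S) :
    Cm A B ∨ (IsRankOnePair A B ∧ IsPSL2PairOver k A B) ∨ ∃ C ∈ S, CC A B C := by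
  obtain ⟨e, he, h⟩ := H.ex A hA
  obtain ⟨f, hf, h'⟩ := H.ex B hB
  rcases H.tri e f he hf with h1 | ⟨c, hc, h1, h2⟩ | ⟨h1, h2, h3⟩
  · exact Or.inl (h.cm H.inj h' h1)
  · exact Or.inr (Or.inl (h.psl H.inj h' hc h1 h2))
  · obtain ⟨C, hC, h4⟩ := H.mk' _ h3
    exact Or.inr (Or.inr ⟨C, hC, h.cc H.inj h' h1 h2 h4⟩)

theorem conj_mem (hA : A ∈ S) (g : G) : g ⋆ A ∈ S :=
  let ⟨e, he, h⟩ := H.ex A hA
  H.mem (H.conj e he g) (h.conj g)

theorem lrs : LRS S := by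
  refine ⟨fun A hA => let ⟨_, _, h⟩ := H.ex A hA; h.cm H.inj h rfl, fun _ _ a _ B hB => H.conj_mem hB a,
    fun A hA B hB => (H.tri' hA hB).imp id (Or.imp And.left id), fun A hA => ?_⟩
  obtain ⟨e, he, h⟩ := H.ex A hA
  obtain ⟨f, hf, c, hc, h1, h2⟩ := H.opp e he
  obtain ⟨B, hB, h'⟩ := H.mk' f hf
  exact ⟨B, hB, (h.psl H.inj h' hc h1 h2).1⟩

theorem kroot (hS : (⨆ A ∈ S, A) = ⊤) : IsKRootSubgroupSet k S := by
  refine ⟨⟨fun A hA => cm_self_iff.1 (H.lrs.cm A hA), fun A hA => let ⟨_, _, h⟩ := H.ex A hA; h.ne_bot,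
    hS, fun A hA g => H.conj_mem hA g, fun A hA B hB => ?_⟩, fun A hA B hB h => ?_⟩
  · rcases H.tri' hA hB with h | h | ⟨C, hC, h⟩
    exacts [Or.inl (cm_iff.2 h), Or.inr (Or.inl h.1), Or.inr (Or.inr (h.case hC))]
  · rcases H.tri' hA hB with h1 | h1 | ⟨C, -, h1⟩
    exacts [absurd h1 (r1_not_cm h), h1.2, absurd h h1.not_r1]

theorem loc : Fam k (ι.comp (⨆ B ∈ S, B).subtype) P (loc S) :=
  ⟨H.inj.comp Subtype.val_injective, by
    rintro _ ⟨A, hA, rfl⟩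
    obtain ⟨e, he, h⟩ := H.ex A hA
    exact ⟨e, he, h.subgroupOf (le_iSup_mem hA)⟩, fun e he =>
    let ⟨A, hA, h⟩ := H.mk' e he
    ⟨_, ⟨A, hA, rfl⟩, h.subgroupOf (le_iSup_mem hA)⟩, fun e he g => H.conj e he g, H.tri, H.opp⟩

theorem loc_kroot : IsKRootSubgroupSet k (Root.loc S) := H.loc.kroot H.lrs.rootSet.generates

theorem deg (hS : IsRootSubgroupSet S) (h : ∀ e f, P e → P f → e * f = f * e ∨
    ∃ c : k, c ≠ 0 ∧ e * f * e = c • e ∧ f * e * f = c • f) : IsDegenerateRootSet S := fun A hA B hB h0 => by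
  obtain ⟨e, he, h1⟩ := H.ex A hA
  obtain ⟨f, hf, h2⟩ := H.ex B hB
  have := rs_cc_of_case hS hA hB h0
  rcases h e f he hf with h3 | ⟨c, hc, h3, h4⟩
  exacts [this.not_cm (h1.cm H.inj h2 h3), this.not_r1 (h1.psl H.inj h2 hc h3 h4).1]

/-- Connectivity from connectivity of the non-commuting relation. -/
theorem conn (h : ∀ T : R → Prop, (∀ e f, P e → P f → e * f ≠ f * e → T e → T f) →
    ∀ e f, P e → P f → T e → T f) : IsConnectedFamily (FAdj S) S := fun A hA B hB => by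
  obtain ⟨e, he, h1⟩ := H.ex A hA
  obtain ⟨f, hf, h2⟩ := H.ex B hB
  refine (h (fun x => ∀ C, U1 k ι x C → C ∈ comp S A) (fun x y hx hy n t C hC => ?_) e f he hf
    (fun C hC => h1.unique hC ▸ comp_self hA) B h2).2
  obtain ⟨D, -, hD⟩ := H.mk' x hx
  by_contra hn
  exact n (hD.of_cm hC (H.lrs.cm_of_not_mem (t D hD) (H.mem hy hC) hn))

end Fam

end Cfsg.Lib.RI
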