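import Cfsg.Agent.Lib.RI.U1
import Cfsg.Agent.Lib.RI.Basic
import Cfsg.Agent.Lib.Linear.Tv

/-!
# Transvection groups of `SL_n(k)` as abstract root subgroups.
-/

set_option autoImplicit false

namespace Cfsg.Lib.RI

open Subgroup Cfsg.Lib.Transfer Cfsg.Lib.Root Cfsg.Lib.Linear Matrix
open scoped Cfsg.Lib.Transfer MatrixGroups

variable {ι : Type} [Fintype ι] {k : Type*} [Field k] {e f : Matrix ι ι k}

/-- Non-zero nilpotent matrices of rank one. -/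
def Tn (e : Matrix ι ι k) : Prop := IsTvNil e ∧ e ≠ 0

theorem tn_iff : Tn e ↔ ∃ v φ : ι → k, v ≠ 0 ∧ φ ≠ 0 ∧ φ ⬝ᵥ v = 0 ∧ e = vecMulVec v φ :=
  ⟨fun ⟨⟨v, φ, h, e1⟩, h0⟩ => ⟨v, φ, fun e2 => h0 (by simp [e1, e2]), fun e2 => h0 (by simp [e1, e2]), h, e1⟩,
    fun ⟨v, φ, h1, h2, h, e1⟩ => ⟨⟨v, φ, h, e1⟩, e1 ▸ vecMulVec_ne_zero h1 h2⟩⟩

theorem Tn.smul (h : Tn e) {c : k} (hc : c ≠ 0) : Tn (c • e) := ⟨h.1.smul c, smul_ne_zero hc h.2⟩

theorem tn_tri (he : Tn e) (hf : Tn f) : ∃ c : k, e * f * e = c • e ∧ f * e * f = c • f ∧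
    (c = 0 → e * f = f * e ∨ Tn (e * f - f * e)) := by
  obtain ⟨v, φ, h1, h2, h3, rfl⟩ := tn_iff.1 he
  obtain ⟨w, ψ, h4, h5, h6, rfl⟩ := tn_iff.1 hf
  refine ⟨(φ ⬝ᵥ w) * (ψ ⬝ᵥ v), by simp only [vecMulVec_mul_vecMulVec', smul_mul_assoc, smul_smul],
    by simp only [vecMulVec_mul_vecMulVec', smul_mul_assoc, smul_smul, mul_comm], fun h => ?_⟩
  simp only [vecMulVec_mul_vecMulVec']
  by_cases a : φ ⬝ᵥ w = 0 <;> by_cases b : ψ ⬝ᵥ v = 0
  · simp [a, b]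
  · rw [a, zero_smul, zero_sub, ← neg_smul]
    exact Or.inr ((tn_iff.2 ⟨w, φ, h4, h2, a, rfl⟩).smul (neg_ne_zero.2 b))
  · rw [b, zero_smul, sub_zero]
    exact Or.inr ((tn_iff.2 ⟨v, ψ, h1, h5, b, rfl⟩).smul a)
  · exact absurd h (mul_ne_zero a b)

theorem tn_opp (he : Tn e) : ∃ f, Tn f ∧ ∃ c : k, c ≠ 0 ∧ e * f * e = c • e ∧ f * e * f = c • f := by
  obtain ⟨v, φ, h1, h2, h3, rfl⟩ := tn_iff.1 he
  obtain ⟨w, h4⟩ := exists_dot_eq_one h2
  rw [dotProduct_comm] at h4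
  obtain ⟨ψ, h5, h6⟩ := exists_dot_of_notMem_span (u := w) (v := v) fun h => by
    obtain ⟨c, rfl⟩ := Submodule.mem_span_singleton.1 h
    rw [dotProduct_smul, h4, smul_eq_mul, mul_one] at h3
    exact h1 (by rw [h3, zero_smul])
  exact ⟨vecMulVec w ψ, tn_iff.2 ⟨w, ψ, fun e => by simp [e] at h4, fun e => by simp [e] at h6, h5, rfl⟩, 1,
    one_ne_zero, by simp [vecMulVec_mul_vecMulVec', h4, h6], by simp [vecMulVec_mul_vecMulVec', h4, h6]⟩

variable [DecidableEq ι] {i j : ι}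

theorem tn_single (h : i ≠ j) : Tn (single i j (1 : k)) :=
  ⟨isTvNil_single h 1, fun e => by simpa using congrFun (congrFun e i) j⟩

theorem sl_u1 (h : i ≠ j) : U1 k SpecialLinearGroup.coeMonoidHom (single i j (1 : k))
    (closure {t : SpecialLinearGroup ι k | ∃ c : k, (t : Matrix ι ι k) = transvection i j c}) :=
  u1_closure (tn_single h).1.mul_self (tn_single h).2
    (fun c => ⟨SpecialLinearGroup.transvection h c, by simp; rfl⟩) fun g => by simp [transvection]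

theorem tn_conj (he : Tn e) (g : SpecialLinearGroup ι k) :
    Tn ((g : Matrix ι ι k) * e * ((g⁻¹ : SpecialLinearGroup ι k) : Matrix ι ι k)) :=
  ⟨he.1.conj (SL_coe_inv_mul g), fun e1 => he.2 (by
    rw [← one_mul e, ← SL_coe_inv_mul g, ← mul_one (_ * e), ← SL_coe_inv_mul g, mul_assoc _ _ e,
      ← mul_assoc, mul_assoc _ (_ * e), e1, mul_zero, zero_mul])⟩

theorem sl_fam (h : i ≠ j) : Fam k SpecialLinearGroup.coeMonoidHom Tn {A | ∃ g, A = conjBy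
    (closure {t : SpecialLinearGroup ι k | ∃ c : k, (t : Matrix ι ι k) = transvection i j c}) g} := by
  refine ⟨Subtype.val_injective, ?_, fun e he => ?_, fun e he g => tn_conj he g, fun e f he hf => ?_,
    fun e he => tn_opp he⟩
  · rintro _ ⟨g, rfl⟩
    exact ⟨_, tn_conj (tn_single h) g, (sl_u1 h).conj g⟩
  · obtain ⟨v, φ, h1, h2, h3, rfl⟩ := tn_iff.1 he
    obtain ⟨g, c, hc, h4⟩ := exists_SL_conj_single h h1 h2 h3
    refine ⟨_, ⟨g, rfl⟩, ?_⟩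
    have := ((sl_u1 h).conj g).smul (inv_ne_zero hc)
    simp only [SpecialLinearGroup.coeMonoidHom_apply] at this
    rwa [h4, smul_smul, mul_one, inv_mul_cancel₀ hc, one_smul] at this
  · obtain ⟨c, h1, h2, h3⟩ := tn_tri he hf
    by_cases hc : c = 0
    · rw [hc, zero_smul] at h1 h2
      exact (h3 hc).imp id fun h => Or.inr ⟨h1, h2, h⟩
    · exact Or.inr (Or.inl ⟨c, hc, h1, h2⟩)

theorem sl_gen {S : Set (Subgroup (SpecialLinearGroup ι k))}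
    (H : Fam k SpecialLinearGroup.coeMonoidHom Tn S) : (⨆ A ∈ S, A) = ⊤ :=
  eq_top_of_transvection_mem _ fun _ _ h c =>
    let ⟨_, hA, h1⟩ := H.mk' _ (tn_single h)
    le_iSup_mem hA ((h1.mem _).2 ⟨c, by simp; rfl⟩)

end Cfsg.Lib.RI
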